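import Mathlib
import Cfsg.Agent.Lib.Helper98.S11.Pkgs

set_option autoImplicit false

/-!
Elements of order eleven in the symmetric group of degree eleven (tools for S0679 packages).
-/

namespace Cfsg.Agent.Lib.Helper90.S11

theorem isCycle_of_order11 {g : Equiv.Perm (Fin 11)} (hg : orderOf g = 11) : g.IsCycle := by
  apply Equiv.Perm.isCycle_of_prime_order'
  · rw [hg]; norm_num
  · rw [hg]; simp

theorem support_of_order11 {g : Equiv.Perm (Fin 11)} (hg : orderOf g = 11) :
    g.support = Finset.univ := by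
  have hc := isCycle_of_order11 hg
  have h := hc.orderOf
  rw [hg] at h
  apply Finset.eq_univ_of_card
  rw [← h]; simp

theorem moves_of_order11 {g : Equiv.Perm (Fin 11)} (hg : orderOf g = 11) (x : Fin 11) :
    g x ≠ x := by
  have := support_of_order11 hg
  have hx : x ∈ g.support := by rw [this]; exact Finset.mem_univ x
  exact Equiv.Perm.mem_support.mp hx

theorem exists_zpow_of_order11 {g : Equiv.Perm (Fin 11)} (hg : orderOf g = 11) (x y : Fin 11) :
    ∃ i : ℤ, (g ^ i) x = y :=
  (isCycle_of_order11 hg).exists_zpow_eq (moves_of_order11 hg x) (moves_of_order11 hg y)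

theorem mem_zpowers_of_commute11 {g c : Equiv.Perm (Fin 11)} (hg : orderOf g = 11)
    (hc : c * g = g * c) : c ∈ Subgroup.zpowers g := by
  obtain ⟨i, hi⟩ := exists_zpow_of_order11 hg 0 (c 0)
  refine ⟨i, ?_⟩
  show g ^ i = c
  apply Equiv.ext
  intro y
  obtain ⟨j, hj⟩ := exists_zpow_of_order11 hg 0 y
  have hcomm : c * g ^ j = g ^ j * c := (Commute.zpow_right (show Commute c g from hc) j).eq
  calc (g ^ i) y = (g ^ i) ((g ^ j) 0) := by rw [hj]
    _ = (g ^ i * g ^ j) 0 := rfl
    _ = (g ^ j * g ^ i) 0 := by rw [(Commute.zpow_zpow_self g i j).eq]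
    _ = (g ^ j) ((g ^ i) 0) := rfl
    _ = (g ^ j) (c 0) := by rw [hi]
    _ = (g ^ j * c) 0 := rfl
    _ = (c * g ^ j) 0 := by rw [hcomm]
    _ = c ((g ^ j) 0) := rfl
    _ = c y := by rw [hj]

end Cfsg.Agent.Lib.Helper90.S11
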