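import Mathlib
import Cfsg.Agent.Lib.Helper98.S11.Pkgs

set_option autoImplicit false

namespace Cfsg.Agent.Lib.Helper90.S11

theorem closure_rot_swap_eq_top :
    Subgroup.closure ({finRotate 11, Equiv.swap (0 : Fin 11) 1} : Set (Equiv.Perm (Fin 11))) = ⊤ := by
  have h := Equiv.Perm.closure_cycle_adjacent_swap (isCycle_finRotate (n := 9))
    (support_finRotate (n := 9)) (0 : Fin 11)
  have h0 : finRotate 11 (0 : Fin 11) = 1 := by decide
  have h0' : finRotate (9 + 2) (0 : Fin (9 + 2)) = 1 := h0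
  rw [h0'] at h
  exact h

theorem pkgCos11 : Cfsg.Agent.Lib.Helper98.S11.PkgCos11 := by
  intro K T h1 hstep y
  have hP1 : ∃ κ ∈ K, ∃ t ∈ T, (1 : Equiv.Perm (Fin 11)) = κ * t :=
    ⟨1, K.one_mem, 1, h1, by simp⟩
  have hPs : ∀ y : Equiv.Perm (Fin 11),
      ∀ s ∈ ({finRotate 11, Equiv.swap (0 : Fin 11) 1} : Set (Equiv.Perm (Fin 11))),
      (∃ κ ∈ K, ∃ t ∈ T, y = κ * t) → ∃ κ ∈ K, ∃ t ∈ T, y * s = κ * t := by
    rintro y s hs ⟨κ, hκ, t, ht, rfl⟩
    obtain ⟨κ', hκ', t', ht', e⟩ := hstep t ht s hs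
    exact ⟨κ * κ', K.mul_mem hκ hκ', t', ht', by rw [mul_assoc, e, mul_assoc]⟩
  have htop : Submonoid.closure
      ({finRotate 11, Equiv.swap (0 : Fin 11) 1} : Set (Equiv.Perm (Fin 11))) = ⊤ := by
    rw [← Subgroup.closure_toSubmonoid_of_finite, closure_rot_swap_eq_top, Subgroup.top_toSubmonoid]
  exact Submonoid.induction_of_closure_eq_top_right htop y hP1 hPs

end Cfsg.Agent.Lib.Helper90.S11
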