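import Mathlib
import Cfsg.Agent.Lib.Helper98.S11.Pkgs
import Cfsg.Agent.Lib.Helper90.S11.Common

set_option autoImplicit false

namespace Cfsg.Agent.Lib.Helper90.S11

theorem pkgCyc11 : Cfsg.Agent.Lib.Helper98.S11.PkgCyc11 := by
  intro H htr g hg
  have hdvd : 11 ∣ Nat.card ↥H := by
    have h1 := MulAction.index_stabilizer_of_transitive ↥H (0 : Fin 11)
    have h2 := Subgroup.index_dvd_card (MulAction.stabilizer ↥H (0 : Fin 11))
    rw [h1, Nat.card_eq_fintype_card, Fintype.card_fin] at h2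
    exact h2
  haveI : Fact (Nat.Prime 11) := ⟨by norm_num⟩
  obtain ⟨h, hh⟩ := exists_prime_orderOf_dvd_card' 11 hdvd
  have hh' : orderOf (h : Equiv.Perm (Fin 11)) = 11 := by rw [Subgroup.orderOf_coe]; exact hh
  have hct : ∀ {k : Equiv.Perm (Fin 11)}, orderOf k = 11 → k.cycleType = {11} := by
    intro k hk
    have hc := isCycle_of_order11 hk
    rw [hc.cycleType, ← hc.orderOf, hk]
  have hconj : IsConj g (h : Equiv.Perm (Fin 11)) := by
    rw [Equiv.Perm.isConj_iff_cycleType_eq, hct hg, hct hh']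
  obtain ⟨c, hc⟩ := isConj_iff.mp hconj
  exact ⟨c, by rw [hc]; exact h.2⟩

end Cfsg.Agent.Lib.Helper90.S11
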