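import Mathlib
import Cfsg.Agent.Lib.Helper98.S11.Pkgs
import Cfsg.Agent.Lib.Helper90.S11.Common

set_option autoImplicit false

namespace Cfsg.Agent.Lib.Helper90.S11

theorem pkgJordan11 : Cfsg.Agent.Lib.Helper98.S11.PkgJordan11 := by
  intro H g s hgH hsH hg hs
  have h3 : s.IsThreeCycle := card_support_eq_three_iff.mp hs
  have htrans : MulAction.IsPretransitive ↥H (Fin 11) := by
    refine ⟨fun x y => ?_⟩
    obtain ⟨i, hi⟩ := exists_zpow_of_order11 hg x y
    exact ⟨⟨g ^ i, H.zpow_mem hgH i⟩, hi⟩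
  have hprim : MulAction.IsPreprimitive ↥H (Fin 11) := by
    apply MulAction.IsPreprimitive.of_prime_card
    rw [Nat.card_eq_fintype_card, Fintype.card_fin]; norm_num
  exact Equiv.Perm.alternatingGroup_le_of_isPreprimitive_of_isThreeCycle_mem hprim h3 hsH

end Cfsg.Agent.Lib.Helper90.S11
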