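import Mathlib
import Cfsg.Agent.Lib.Helper98.S11.Pkgs
import Cfsg.Agent.S0498

set_option autoImplicit false

namespace Cfsg.Agent.Lib.Helper90.S11

theorem pkgL11 : Cfsg.Agent.Lib.Helper98.S11.PkgL11 := by
  intro K _ _ _ hcard
  haveI : Fact (Nat.Prime 11) := ⟨by norm_num⟩
  exact Cfsg.Agent.S0498.result (G := K) 11 (Or.inl rfl) (by norm_num [hcard]) (F := ZMod 11)
    (by rw [ZMod.card])

end Cfsg.Agent.Lib.Helper90.S11
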