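import Mathlib
import Cfsg.Agent.Lib.Helper98.S11.Pkgs

set_option autoImplicit false

namespace Cfsg.Agent.Lib.Helper90.S11

theorem pkgNorm11 : Cfsg.Agent.Lib.Helper98.S11.PkgNorm11 := by
  intro S c hS k hk
  have hpow : ∀ s : Equiv.Perm (Fin 11), s * c * s⁻¹ ∈ Subgroup.zpowers c →
      ∀ z ∈ Subgroup.zpowers c, s * z * s⁻¹ ∈ Subgroup.zpowers c := by
    rintro s hs z ⟨n, rfl⟩
    show s * c ^ n * s⁻¹ ∈ Subgroup.zpowers c
    rw [← conj_zpow]
    exact Subgroup.zpow_mem _ hs n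
  have key : (∀ z ∈ Subgroup.zpowers c, k * z * k⁻¹ ∈ Subgroup.zpowers c) ∧
      (∀ z ∈ Subgroup.zpowers c, k⁻¹ * z * k ∈ Subgroup.zpowers c) := by
    induction hk using Subgroup.closure_induction with
    | mem s hs =>
      refine ⟨hpow s (hS s hs).1, fun z hz => ?_⟩
      have h2 : s⁻¹ * c * s⁻¹⁻¹ ∈ Subgroup.zpowers c := by rw [inv_inv]; exact (hS s hs).2
      have := hpow s⁻¹ h2 z hz
      rwa [inv_inv] at this
    | one => exact ⟨fun z hz => by simpa using hz, fun z hz => by simpa using hz⟩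
    | mul a b _ _ iha ihb =>
      refine ⟨fun z hz => ?_, fun z hz => ?_⟩
      · have := iha.1 _ (ihb.1 z hz)
        have e : a * b * z * (a * b)⁻¹ = a * (b * z * b⁻¹) * a⁻¹ := by group
        rw [e]; exact this
      · have := ihb.2 _ (iha.2 z hz)
        have e : (a * b)⁻¹ * z * (a * b) = b⁻¹ * (a⁻¹ * z * a) * b := by group
        rw [e]; exact this
    | inv a _ iha =>
      refine ⟨fun z hz => ?_, fun z hz => ?_⟩
      · rw [inv_inv]; exact iha.2 z hz
      · rw [inv_inv]; exact iha.1 z hz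
  exact key.1 c (Subgroup.mem_zpowers c)

end Cfsg.Agent.Lib.Helper90.S11
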