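import Mathlib
import Cfsg.Agent.Lib.Helper98.S11.Pkgs

set_option autoImplicit false

namespace Cfsg.Agent.Lib.Helper90.S11

theorem pkgPow11 : Cfsg.Agent.Lib.Helper98.S11.PkgPow11 := by
  intro H x i hx hne hmem
  have hnd : ¬ (11 : ℤ) ∣ i := by
    intro hd
    apply hne
    rw [← orderOf_dvd_iff_zpow_eq_one, hx]
    exact_mod_cast hd
  have hcop : IsCoprime i (11 : ℤ) := by
    have h11 : Nat.Prime 11 := by norm_num
    have hc : Nat.Coprime 11 i.natAbs :=
      (Nat.Prime.coprime_iff_not_dvd h11).mpr (fun hd => hnd (Int.natCast_dvd.mpr hd))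
    have hc' : IsCoprime ((11 : ℕ) : ℤ) ((i.natAbs : ℕ) : ℤ) := Nat.isCoprime_iff_coprime.mpr hc
    have hc'' : IsCoprime (11 : ℤ) i := by
      rcases Int.natAbs_eq i with h | h
      · rw [h]; exact_mod_cast hc'
      · rw [h]; exact (IsCoprime.neg_right_iff _ _).mpr (by exact_mod_cast hc')
    exact hc''.symm
  obtain ⟨a, b, hab⟩ := hcop
  have hx11 : x ^ (11 : ℤ) = 1 := by
    have := pow_orderOf_eq_one x
    rw [hx] at this
    exact_mod_cast this
  have hxe : x = (x ^ i) ^ a := by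
    calc x = x ^ (a * i + b * 11) := by rw [hab, zpow_one]
      _ = (x ^ i) ^ a * (x ^ (11 : ℤ)) ^ b := by
        rw [zpow_add, mul_comm a i, zpow_mul, mul_comm b 11, zpow_mul]
      _ = (x ^ i) ^ a := by rw [hx11, one_zpow, mul_one]
  rw [hxe]
  exact H.zpow_mem hmem a

end Cfsg.Agent.Lib.Helper90.S11
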