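import Mathlib
import Cfsg.Agent.Lib.Helper98.S11.Pkgs

set_option autoImplicit false

namespace Cfsg.Agent.Lib.Helper90.S11

/-- The standard embedding of four points into eleven. -/
def emb4 : Fin 4 ↪ Fin 11 :=
  ⟨fun i => ⟨i.val, by omega⟩, fun i j h => by
    apply Fin.ext
    simpa using congrArg Fin.val h⟩

theorem pkgSharp11 : Cfsg.Agent.Lib.Helper98.S11.PkgSharp11 := by
  intro H hcard hfix
  have hstab0 : MulAction.stabilizer ↥H emb4 = ⊥ := by
    rw [Subgroup.eq_bot_iff_forall]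
    intro h hh
    rw [MulAction.mem_stabilizer_iff] at hh
    have hv : ∀ i : Fin 4, (h : Equiv.Perm (Fin 11)) (emb4 i) = emb4 i := fun i =>
      DFunLike.congr_fun hh i
    have := hfix h h.2 (hv 0) (hv 1) (hv 2) (hv 3)
    exact Subtype.ext this
  have hidx := MulAction.index_stabilizer (G := ↥H) (x := emb4)
  rw [hstab0, Subgroup.index_bot, hcard] at hidx
  have hcardE : Nat.card (Fin 4 ↪ Fin 11) = 7920 := by
    rw [Nat.card_eq_fintype_card, Fintype.card_embedding_eq]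
    simp [Nat.descFactorial]
  have horb := (Set.eq_univ_iff_ncard _).mpr (hidx.symm.trans hcardE.symm)
  have hall : ∀ x : Fin 4 ↪ Fin 11, ∃ a : ↥H,
      ∀ i : Fin 4, x i = (a : Equiv.Perm (Fin 11)) (emb4 i) := fun x => by
    have hx := (Set.ext_iff.mp horb x).mpr (Set.mem_univ x)
    obtain ⟨a, ha⟩ := hx
    exact ⟨a, fun i => by rw [← ha]; rfl⟩
  refine ⟨⟨fun x y => ?_⟩, fun x => ?_⟩
  · obtain ⟨a, ha⟩ := hall x
    obtain ⟨b, hb⟩ := hall y
    refine ⟨b * a⁻¹, ?_⟩
    apply Function.Embedding.ext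
    intro i
    show ((b * a⁻¹ : ↥H) : Equiv.Perm (Fin 11)) (x i) = y i
    rw [ha i, hb i]
    simp
  · obtain ⟨a, hx⟩ := hall x
    rw [Subgroup.eq_bot_iff_forall]
    intro h hh
    rw [MulAction.mem_stabilizer_iff] at hh
    have hv : ∀ i : Fin 4, (h : Equiv.Perm (Fin 11)) (x i) = x i := fun i =>
      DFunLike.congr_fun hh i
    have hw : ∀ i : Fin 4,
        ((a : Equiv.Perm (Fin 11))⁻¹ * h * a) (emb4 i) = emb4 i := fun i => by
      simp only [Equiv.Perm.mul_apply]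
      rw [← hx i, hv i, hx i]
      simp
    have h1 := hfix _ (H.mul_mem (H.mul_mem (H.inv_mem a.2) h.2) a.2) (hw 0) (hw 1) (hw 2) (hw 3)
    apply Subtype.ext
    have h2 : (h : Equiv.Perm (Fin 11)) =
        a * ((a : Equiv.Perm (Fin 11))⁻¹ * h * a) * (a : Equiv.Perm (Fin 11))⁻¹ := by group
    rw [h2, h1]
    simp

end Cfsg.Agent.Lib.Helper90.S11
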