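import Mathlib
import Cfsg.Agent.Lib.Helper98.S11.Pkgs
import Cfsg.Agent.Lib.Helper90.S11.Common

set_option autoImplicit false

namespace Cfsg.Agent.Lib.Helper90.S11

open scoped commutatorElement

theorem pkgSolv11 : Cfsg.Agent.Lib.Helper98.S11.PkgSolv11 := by
  intro H g hgH hg hnorm
  have hpow : ∀ x ∈ H, ∃ a : ℤ, ∀ z ∈ Subgroup.zpowers g, x * z * x⁻¹ = z ^ a := by
    intro x hx
    obtain ⟨a, ha⟩ := hnorm x hx
    refine ⟨a, ?_⟩
    rintro z ⟨n, rfl⟩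
    have h1 : x * g ^ n * x⁻¹ = (x * g * x⁻¹) ^ n := by rw [conj_zpow]
    have ha' : g ^ a = x * g * x⁻¹ := ha
    show x * g ^ n * x⁻¹ = (g ^ n) ^ a
    rw [h1, ← ha', ← zpow_mul, ← zpow_mul, mul_comm]
  have hcomm : ∀ h k : Equiv.Perm (Fin 11), h ∈ H → k ∈ H → ⁅h, k⁆ ∈ Subgroup.zpowers g := by
    intro h k hh hk
    apply mem_zpowers_of_commute11 hg
    obtain ⟨a, ha⟩ := hpow h hh
    obtain ⟨b, hb⟩ := hpow k hk
    have hzmem : (k * h)⁻¹ * g * (k * h) ∈ Subgroup.zpowers g := by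
      have := hnorm (k * h)⁻¹ (H.inv_mem (H.mul_mem hk hh))
      simpa using this
    generalize hz : (k * h)⁻¹ * g * (k * h) = z at hzmem
    have h1 : (h * k) * z * (h * k)⁻¹ = (k * h) * z * (k * h)⁻¹ := by
      have e1 : (h * k) * z * (h * k)⁻¹ = h * (k * z * k⁻¹) * h⁻¹ := by group
      have e2 : (k * h) * z * (k * h)⁻¹ = k * (h * z * h⁻¹) * k⁻¹ := by group
      rw [e1, e2, hb z hzmem, ha z hzmem, ha _ (Subgroup.zpow_mem _ hzmem b),
        hb _ (Subgroup.zpow_mem _ hzmem a), ← zpow_mul, ← zpow_mul, mul_comm]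
    have h2 : (k * h) * z * (k * h)⁻¹ = g := by rw [← hz]; group
    have h3 : ⁅h, k⁆ * g * ⁅h, k⁆⁻¹ = (h * k) * z * (h * k)⁻¹ := by
      rw [← hz, commutatorElement_def]; group
    have h4 : ⁅h, k⁆ * g * ⁅h, k⁆⁻¹ = g := by rw [h3, h1, h2]
    exact mul_inv_eq_iff_eq_mul.mp h4
  have hle : Subgroup.zpowers g ≤ H := by rw [Subgroup.zpowers_le]; exact hgH
  haveI : IsSolvable ↥(Subgroup.zpowers g) := by
    apply isSolvable_of_comm
    rintro ⟨a, i, rfl⟩ ⟨b, j, rfl⟩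
    apply Subtype.ext
    exact (Commute.zpow_zpow_self g i j).eq
  refine solvable_of_ker_le_range (Subgroup.inclusion hle) (Abelianization.of) ?_
  rw [Abelianization.ker_of, commutator_def, Subgroup.commutator_le]
  intro x _ y _
  exact ⟨⟨⁅(x : Equiv.Perm (Fin 11)), (y : Equiv.Perm (Fin 11))⁆, hcomm _ _ x.2 y.2⟩,
    Subtype.ext rfl⟩

end Cfsg.Agent.Lib.Helper90.S11
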