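import Mathlib
import Cfsg.Agent.Lib.Helper98.S11.Pkgs

set_option autoImplicit false

namespace Cfsg.Agent.Lib.Helper90.S11

open Cfsg.Agent.Lib.Helper98.S11 in
theorem cntB_eq_sum (f : ℕ → ℕ) (n : ℕ) :
    cntB f n = ∑ j ∈ Finset.range n, (if f j = j then 0 else 1) := by
  induction n with
  | zero => rfl
  | succ n ih =>
    rw [Finset.sum_range_succ, ← ih]
    show Nat.add (cntB f n) (cond (Nat.beq (f n) n) 0 1) = _
    cases hb : Nat.beq (f n) n with
    | true =>
      have h := Nat.eq_of_beq_eq_true hb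
      simp [h]
    | false =>
      have h := Nat.ne_of_beq_eq_false hb
      simp [h]

theorem pkgSupp11 : Cfsg.Agent.Lib.Helper98.S11.PkgSupp11 := by
  intro σ f hf
  rw [cntB_eq_sum, ← Fin.sum_univ_eq_sum_range (fun j => if f j = j then 0 else 1) 11]
  rw [Equiv.Perm.support, Finset.card_filter]
  apply Finset.sum_congr rfl
  intro i _
  have hiff : (f i = i) ↔ σ i = i := by rw [hf i]; exact Fin.val_inj
  by_cases h : σ i = i
  · have h' : f i = i := hiff.mpr h
    simp [h, h']
  · have h' : ¬ f i = i := fun e => h (hiff.mp e)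
    simp [h, h']

end Cfsg.Agent.Lib.Helper90.S11
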