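import Mathlib
import Cfsg.Agent.Lib.Helper98.S11.Pkgs

set_option autoImplicit false

/-!
Transport of properties of permutation groups along a relabelling of the points
(tools for the S0679 packages CONJ11 and TRANS11).
-/

namespace Cfsg.Agent.Lib.Helper90.S11

universe u v

section

variable {α : Type u} {β : Type v} [Fintype α] [DecidableEq α] [Fintype β] [DecidableEq β]

/-- `H` is the image of `G` under relabelling by `e`. -/
def PermRel (e : α ≃ β) (G : Subgroup (Equiv.Perm α)) (H : Subgroup (Equiv.Perm β)) : Prop :=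
  ∀ g : Equiv.Perm α, g ∈ G ↔ e.permCongr g ∈ H

theorem permCongr_permCongr_symm (e : α ≃ β) (k : Equiv.Perm β) :
    e.permCongr (e.symm.permCongr k) = k := by
  apply Equiv.ext
  intro x
  simp [Equiv.permCongr_apply]

theorem PermRel.symm {e : α ≃ β} {G : Subgroup (Equiv.Perm α)} {H : Subgroup (Equiv.Perm β)}
    (h : PermRel e G H) : PermRel e.symm H G := by
  intro k
  rw [h (e.symm.permCongr k), permCongr_permCongr_symm]

theorem PermRel.map_eq {e : α ≃ β} {G : Subgroup (Equiv.Perm α)} {H : Subgroup (Equiv.Perm β)}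
    (h : PermRel e G H) : G.map (e.permCongrHom : Equiv.Perm α →* Equiv.Perm β) = H := by
  ext k
  constructor
  · rintro ⟨g, hg, rfl⟩
    exact (h g).mp hg
  · intro hk
    exact ⟨e.symm.permCongr k, (h.symm k).mp hk, permCongr_permCongr_symm e k⟩

theorem PermRel.iso {e : α ≃ β} {G : Subgroup (Equiv.Perm α)} {H : Subgroup (Equiv.Perm β)}
    (h : PermRel e G H) : Nonempty (↥G ≃* ↥H) :=
  ⟨(e.permCongrHom.subgroupMap G).trans (MulEquiv.subgroupCongr h.map_eq)⟩

theorem PermRel.solv {e : α ≃ β} {G : Subgroup (Equiv.Perm α)} {H : Subgroup (Equiv.Perm β)}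
    (h : PermRel e G H) (hs : Group.IsSolvable ↥G) : Group.IsSolvable ↥H := by
  obtain ⟨i⟩ := h.iso
  haveI := hs
  exact solvable_of_surjective (f := i.toMonoidHom) i.surjective

theorem PermRel.alt {e : α ≃ β} {G : Subgroup (Equiv.Perm α)} {H : Subgroup (Equiv.Perm β)}
    (h : PermRel e G H) (ha : alternatingGroup α ≤ G) : alternatingGroup β ≤ H := by
  intro k hk
  have hk' : e.symm.permCongr k ∈ alternatingGroup α := by
    rw [Equiv.Perm.mem_alternatingGroup] at hk ⊢
    rw [Equiv.Perm.sign_permCongr]; exact hk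
  exact (h.symm k).mpr (ha hk')

theorem PermRel.trans {e : α ≃ β} {G : Subgroup (Equiv.Perm α)} {H : Subgroup (Equiv.Perm β)}
    (h : PermRel e G H) (ht : MulAction.IsPretransitive ↥G α) :
    MulAction.IsPretransitive ↥H β := by
  refine ⟨fun x y => ?_⟩
  obtain ⟨g, hg⟩ := MulAction.exists_smul_eq ↥G (e.symm x) (e.symm y)
  have hg' : (g : Equiv.Perm α) (e.symm x) = e.symm y := hg
  refine ⟨⟨e.permCongr g, (h g).mp g.2⟩, ?_⟩
  show e.permCongr (g : Equiv.Perm α) x = y
  rw [Equiv.permCongr_apply, hg', Equiv.apply_symm_apply]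

theorem PermRel.sharp {e : α ≃ β} {G : Subgroup (Equiv.Perm α)} {H : Subgroup (Equiv.Perm β)}
    (h : PermRel e G H)
    (hs : MulAction.IsMultiplyPretransitive ↥G α 4 ∧
      ∀ x : Fin 4 ↪ α, MulAction.stabilizer ↥G x = ⊥) :
    MulAction.IsMultiplyPretransitive ↥H β 4 ∧
      ∀ x : Fin 4 ↪ β, MulAction.stabilizer ↥H x = ⊥ := by
  obtain ⟨ht, hst⟩ := hs
  refine ⟨⟨fun x y => ?_⟩, fun x => ?_⟩
  · obtain ⟨g, hg⟩ := ht.exists_smul_eq (x.trans e.symm.toEmbedding) (y.trans e.symm.toEmbedding)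
    have hg' : ∀ i, (g : Equiv.Perm α) (e.symm (x i)) = e.symm (y i) := fun i =>
      DFunLike.congr_fun hg i
    refine ⟨⟨e.permCongr g, (h g).mp g.2⟩, ?_⟩
    apply Function.Embedding.ext
    intro i
    show e.permCongr (g : Equiv.Perm α) (x i) = y i
    rw [Equiv.permCongr_apply, hg' i, Equiv.apply_symm_apply]
  · rw [Subgroup.eq_bot_iff_forall]
    intro k hk
    rw [MulAction.mem_stabilizer_iff] at hk
    have hv : ∀ i, (k : Equiv.Perm β) (x i) = x i := fun i => DFunLike.congr_fun hk i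
    have hmem : e.symm.permCongr (k : Equiv.Perm β) ∈ G := (h.symm k).mp k.2
    have hstab : (⟨_, hmem⟩ : ↥G) ∈ MulAction.stabilizer ↥G (x.trans e.symm.toEmbedding) := by
      rw [MulAction.mem_stabilizer_iff]
      apply Function.Embedding.ext
      intro i
      show e.symm.permCongr (k : Equiv.Perm β) (e.symm (x i)) = e.symm (x i)
      rw [Equiv.permCongr_apply, Equiv.symm_symm, Equiv.apply_symm_apply, hv i]
    rw [hst, Subgroup.mem_bot] at hstab
    have h1 : e.symm.permCongr (k : Equiv.Perm β) = 1 := congrArg Subtype.val hstab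
    apply Subtype.ext
    show (k : Equiv.Perm β) = 1
    rw [← permCongr_permCongr_symm e k, h1]
    apply Equiv.ext
    intro y
    simp [Equiv.permCongr_apply]

end

theorem pkgConj11 : Cfsg.Agent.Lib.Helper98.S11.PkgConj11 := by
  intro H c hgood
  have hrel : PermRel (c : Fin 11 ≃ Fin 11) (H.comap (MulAut.conj c).toMonoidHom) H := by
    intro g
    have e1 : Equiv.permCongr (c : Fin 11 ≃ Fin 11) g = c * g * c⁻¹ := by
      apply Equiv.ext
      intro x
      simp [Equiv.permCongr_apply]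
    rw [e1, Subgroup.mem_comap]
    rfl
  rcases hgood with h | h | h | h
  · exact Or.inl (hrel.solv h)
  · exact Or.inr (Or.inl (hrel.alt h))
  · exact Or.inr (Or.inr (Or.inl (hrel.sharp h)))
  · obtain ⟨f⟩ := h
    obtain ⟨i⟩ := hrel.iso
    exact Or.inr (Or.inr (Or.inr ⟨i.symm.trans f⟩))

theorem pkgTrans11 : Cfsg.Agent.Lib.Helper98.S11.PkgTrans11.{u} := by
  intro hfin α _ _ hcard G _ hns hnalt
  have e : α ≃ Fin 11 := Fintype.equivFinOfCardEq hcard
  have hrel : PermRel e G (G.map (e.permCongrHom : Equiv.Perm α →* Equiv.Perm (Fin 11))) := by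
    intro g
    constructor
    · intro hg
      exact ⟨g, hg, rfl⟩
    · rintro ⟨g', hg', heq⟩
      have : g' = g := e.permCongrHom.injective heq
      rw [← this]; exact hg'
  have h1 := hfin _ (hrel.trans inferInstance) (fun hs => hns (hrel.symm.solv hs))
    (fun ha => hnalt (hrel.symm.alt ha))
  rcases h1 with h | h
  · left
    exact hrel.symm.sharp h
  · right
    obtain ⟨f⟩ := h
    obtain ⟨i⟩ := hrel.iso
    exact ⟨i.trans f⟩

end Cfsg.Agent.Lib.Helper90.S11
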